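import Mathlib
import Cfsg.Agent.Lib.M75.IDefs
import Cfsg.Agent.Lib.LocEven.Basic

/-!
Elements of order 3 of `C(t)` centralize only one involution of `O₂(C(t))`.
-/

set_option autoImplicit false
set_option linter.unusedSectionVars false
set_option linter.unusedVariables false

namespace H23M

open Cfsg Subgroup H71KM
open scoped commutatorElement

variable {G : Type*} [Group G] [Finite G] {B : Subgroup G} {t : G}

theorem One3.ea {y : G} (y3 : y ^ 3 = 1) : EA 3 (zpowers y) := by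
  simpa using EA.sup (p := 3) (D := ⊥) ⟨inferInstance, fun b hb => by rw [mem_bot.1 hb, one_pow]⟩ (x := y)
    (fun d hd => by rw [mem_bot.1 hd, one_mul, mul_one]) y3

theorem One3.card {y : G} (y3 : y ^ 3 = 1) (y1 : y ≠ 1) : Nat.card (zpowers y) = 3 := by
  rw [Nat.card_zpowers, orderOf_eq_prime y3 y1]

/-- every element of order 3 of `C(t)` lies in a good pair. -/
theorem good_of_mem (g : Good 3 9 B t) {y : G} (y3 : y ^ 3 = 1) (y1 : y ≠ 1) (yt : y ∈ centralizer {t}) :
    ∃ E : Subgroup G, y ∈ E ∧ Good 3 9 E t := by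
  obtain ⟨S, hS, hyS⟩ := H68.exists_sylowIn_ge (One3.ea y3).isPGroup (zpowers_le_of_mem yt)
  obtain ⟨k, hk, hB⟩ := hS.exists_cj_le g.ea.isPGroup g.le
  obtain ⟨z, hz, hzc, ho⟩ := H5.exists_mem_centralizer_orderOf_eq hS.isPGroup le_rfl le_normalizer
    fun e => y1 (mem_bot.1 (e ▸ hyS (mem_zpowers y)))
  have z3 : z ^ 3 = 1 := ho ▸ pow_orderOf_eq_one z
  have z1 : z ≠ 1 := fun e => by simp [e] at ho
  obtain ⟨b, hb, b3, hbc, hby⟩ : ∃ b ∈ S, b ^ 3 = 1 ∧ b ∈ 𝐂(zpowers y) ∧ b ∉ zpowers y := by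
    by_cases hzy : z ∈ zpowers y
    · have e : zpowers z = zpowers y := eq_of_le_of_card_ge (zpowers_le_of_mem hzy)
        (by rw [One3.card y3 y1, One3.card z3 z1])
      obtain ⟨b, hb, hn⟩ := SetLike.not_le_iff_exists.1 fun l : H68.cj k B ≤ zpowers y => by
        have := card_le_of_le l
        rw [H68.card_cj, One3.card y3 y1] at this
        exact absurd (g.card.trans this) (by decide)
      refine ⟨b, hB hb, ?_, ?_, hn⟩
      · have := g.ea.2 _ (H68.mem_cj.1 hb)
        rwa [show k⁻¹ * b * k = k⁻¹ * b * k⁻¹⁻¹ by rw [inv_inv], conj_pow, conj_eq_one_iff] at this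
      · rw [← e, H70.centralizer_zpowers]
        exact mc_symm (mc_of_mem hzc (hB hb))
    · exact ⟨z, hz, z3, centralizer_le hyS hzc, hzy⟩
  exact ⟨_, mem_sup_left (mem_zpowers y), (One3.ea y3).sup hbc b3, g.ne, g.sq,
    sup_le (zpowers_le_of_mem yt) (zpowers_le_of_mem (hS.le hb)),
    by rw [card_sup hbc b3 hby, One3.card y3 y1]⟩

theorem Fin3.one3 (h : Fin3 B t) (all : H16M.All G) {y a : G} (y3 : y ^ 3 = 1) (y1 : y ≠ 1)
    (yt : y ∈ centralizer {t}) (ha : a ∈ RT t) (hay : a ∈ centralizer {y}) (a2 : a * a = 1) : a = 1 ∨ a = t := by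
  obtain ⟨E, hy, g⟩ := good_of_mem h.good y3 y1 yt
  exact (all E t g).one y hy y1 a ha hay a2

end H23M
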